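import Cfsg.Agent.SPOR.MP.Nor1

/-!
The representation of degree 196883 and its product.
-/

set_option autoImplicit false

namespace CL.Nor

open Cfsg CL.Leech CL.MT CL.Gr CL.MO CL.Deg Module
open Cfsg.Spor (leechU)

variable {P : Pk ℝ} {W : Type} [AddCommGroup W] [Module ℝ W] [FiniteDimensional ℝ W]

theorem triv_small (σ : GG P →* End ℝ W) (h : finrank ℝ W < 196883) (g : GG P) : σ g = 1 := by
  let τ := (End.baseChangeHom ℝ ℂ W).toMonoidHom.comp σ
  have := simple_GG P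
  rcases τ.normal_ker.eq_bot_or_eq_top with e | e
  · have := min_degree P τ ((MonoidHom.ker_eq_bot_iff _).1 e)
    rw [finrank_baseChange] at this
    omega
  · have : τ g = 1 := MonoidHom.mem_ker.1 (e ▸ Subgroup.mem_top g)
    exact LinearMap.baseChangeHom_injective ℝ W ℂ (this.trans (LinearMap.baseChange_one ℝ W).symm)

theorem irr (ρ : Representation ℝ (GG P) W) (hρ : Function.Injective ρ) (hd : finrank ℝ W = 196883)
    (U : Submodule ℝ W) (hU : ∀ g, U ≤ U.comap (ρ g)) : U = ⊥ ∨ U = ⊤ := by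
  by_contra hc
  rw [not_or] at hc
  have h1 := triv_small (ρ.subrepresentation U hU) (hd ▸ Submodule.finrank_lt hc.2) (zz P)
  have h2 := triv_small (ρ.quotient U hU) (by
    have := U.finrank_quotient_add_finrank
    have := Submodule.one_le_finrank_iff.2 hc.1
    omega) (zz P)
  refine (mt P).lx.z_ne (hρ (LinearMap.ext fun v => ?_))
  have h3 : ρ (zz P) v - v ∈ U := (Submodule.Quotient.eq U).1 (LinearMap.congr_fun h2 (U.mkQ v))
  have h4 : ρ (zz P) (ρ (zz P) v - v) = ρ (zz P) v - v :=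
    congrArg Subtype.val (LinearMap.congr_fun h1 ⟨_, h3⟩)
  rw [map_sub, ← End.mul_apply, ← map_mul, (mt P).lx.z_sq] at h4
  rw [map_one] at h4 ⊢
  linear_combination (norm := module) (-(2 : ℝ)⁻¹) • h4

theorem ex_iota (hd : finrank ℝ W = 196883) : ∃ (ι : W →ₗ[ℝ] VV ℝ) (π : VV ℝ →ₗ[ℝ] W),
    (∀ w, π (ι w) = w) ∧ ∀ v, ι (π v) = v - (BB ee v / 48) • ee := by
  have h : finrank ℝ (LinearMap.ker (BB ee)) = finrank ℝ W := by
    have := Module.Dual.finrank_ker_add_one_of_ne_zero (f := BB ee) fun e => by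
      simpa [e] using BB_ee
    rw [finrank_VV] at this
    omega
  have := Module.Free.of_divisionRing ℝ (LinearMap.ker (BB ee))
  let e := LinearEquiv.ofFinrankEq _ _ h
  refine ⟨(LinearMap.ker (BB ee)).subtype ∘ₗ e.symm, e.toLinearMap ∘ₗ LinearMap.codRestrict _
    (LinearMap.id - (BB ee).smulRight ((48 : ℝ)⁻¹ • ee)) fun v => by simp [BB_ee],
    fun w => e.symm.injective (Subtype.ext ?_), fun v => ?_⟩ <;>
    refine (congrArg Subtype.val (e.symm_apply_apply _)).trans ((LinearMap.codRestrict_apply ..).trans ?_)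
  · simp [LinearMap.mem_ker.1 (e.symm w).2]
  · simp [smul_smul, div_eq_mul_inv]

variable (P)

theorem norton (hd : finrank ℝ W = 196883) : ∃ ρ : Representation ℝ (GG P) W, Function.Injective ρ ∧
    (∃ B : LinearMap.BilinForm ℝ W, B ≠ 0 ∧ (∀ u v, B u v = B v u) ∧
      ∀ g u v, B (ρ g u) (ρ g v) = B u v) ∧
    ∃ m : W →ₗ[ℝ] W →ₗ[ℝ] W, m ≠ 0 ∧ (∀ u v, m u v = m v u) ∧
      (∀ g u v, m (ρ g u) (ρ g v) = ρ g (m u v)) ∧ ∀ m' : W →ₗ[ℝ] W →ₗ[ℝ] W,
        (∀ g u v, m' (ρ g u) (ρ g v) = ρ g (m' u v)) → ∃ c : ℝ, m' = c • m := by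
  obtain ⟨ι, π, h1, h2⟩ := ex_iota hd
  have πe : π ee = 0 := by rw [← h1 (π ee), h2, BB_ee]; simp
  have Bι : ∀ w, BB ee (ι w) = 0 := fun w => by rw [← h1 w, h2]; simp [BB_ee]
  have Bg : ∀ (g : GG P) v, BB ee (g.1 v) = BB ee v := fun g v => by
    rw [← BB_inv g.2 ee v, ee_fixed g.2]
  have a1 : ∀ (g : GG P) w, ι (π (g.1 (ι w))) = g.1 (ι w) := fun g w => by rw [h2, Bg, Bι]; simp
  have a2 : ∀ (g : GG P) v, π (g.1 (ι (π v))) = π (g.1 v) := fun g v => by
    rw [h2, map_sub, map_smul, ee_fixed g.2, map_sub, map_smul, πe, smul_zero, sub_zero]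
  let ρ : Representation ℝ (GG P) W :=
    { toFun := fun g => π ∘ₗ g.1.toLinearMap ∘ₗ ι
      map_one' := LinearMap.ext h1
      map_mul' := fun g g' => LinearMap.ext fun w => congrArg (fun x => π (g.1 x)) (a1 g' w).symm }
  have b1 : ∀ g w, ι (ρ g w) = g.1 (ι w) := a1
  have b2 : ∀ g v, ρ g (π v) = π (g.1 v) := a2
  have inj : Function.Injective ρ := (injective_iff_map_eq_one ρ).2 fun g e =>
    Subtype.ext (LinearEquiv.ext fun v => by
      have := b1 g (π v)
      rw [e, End.one_apply, h2, map_sub, map_smul, ee_fixed g.2] at this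
      exact (sub_left_injective this).symm)
  have na : π a0 ≠ 0 := fun e => by
    have := congrArg (BB a0) (h2 a0)
    rw [e, map_sub, map_smul, BB_a0_a0, BB_comm a0 ee, BB_ee_a0] at this
    norm_num at this
  have key : ∀ m : W →ₗ[ℝ] W →ₗ[ℝ] W, (∀ g u v, m (ρ g u) (ρ g v) = ρ g (m u v)) →
      BB (ι (m (π (sy (cv ℝ leechU) (cv ℝ leechU))) (π (Xv ℝ leechU)))) (Xv ℝ leechU) = 0 → m = 0 := by
    intro m hm h0
    let T : Tri := (m.compl₁₂ π π).compr₂ (BB ∘ₗ ι)
    have hT : ∀ u v w, T u v w = BB (ι (m (π u) (π v))) w := fun _ _ _ => rfl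
    have I : IT P T := ⟨fun g u v w => by rw [hT, hT, ← b2, ← b2, hm, b1, BB_inv g.2],
      fun v w => by simp [hT, πe], fun v w => by simp [hT, πe], fun v w => by rw [hT, BB_comm, Bι], h0⟩
    have z : ∀ {u}, (∀ v w, T u v w = 0) → m (π u) = 0 := fun {u} h => LinearMap.ext fun v => by
      by_contra n
      have := h (ι v) (ι (m (π u) v))
      rw [hT, h1] at this
      exact (BB_pos _ fun e => n (by rw [← h1 (m _ v), e, map_zero]; rfl)).ne' this
    rcases irr ρ inj hd (LinearMap.ker m) (fun g u hu => LinearMap.ext fun v => by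
      rw [← ρ.self_inv_apply g v, hm, LinearMap.mem_ker.1 hu]; simp) with e | e
    · have := h2 (dg none)
      rw [(Submodule.eq_bot_iff _).1 e _ (z (I.dg_zero none)), map_zero, eq_comm, sub_eq_zero] at this
      have h3 := congrArg (fun v => v.1.1 none none) this
      have h4 := congrArg (fun v => v.1.1 (some 0) (some 0)) this
      generalize BB ee (dg none) / 48 = c at h3 h4
      simp [sy_apply, iA, ee, Ce.sv, un, Matrix.vecMulVec_apply] at h3 h4
      simp [h4] at h3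
    · exact LinearMap.ker_eq_top.1 e
  let m : W →ₗ[ℝ] W →ₗ[ℝ] W := ((mul P).compl₁₂ ι ι).compr₂ π
  have hm : ∀ u v, m u v = π (mul P (ι u) (ι v)) := fun _ _ => rfl
  have mi : ∀ g u v, m (ρ g u) (ρ g v) = ρ g (m u v) := fun g u v => by
    rw [hm, hm, b1, b1, b2, mul_inv' g.2]
  have m0 : m ≠ 0 := fun e => na (by
    have := hm (π a0) (π a0)
    rw [e, h2, BB_ee_a0] at this
    simp only [map_sub, map_smul, LinearMap.sub_apply, LinearMap.smul_apply, ee_mul, πe,
      mul_comm' P a0 ee, show mul P a0 a0 = a0 from pair_t0.2.2.1.1.2.1, LinearMap.zero_apply] at this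
    linear_combination (norm := module) (-(24 / 23 : ℝ)) • this)
  refine ⟨ρ, inj, ⟨BB.compl₁₂ ι ι, fun e => ?_, fun u v => BB_comm _ _, fun g u v => ?_⟩, m, m0,
    fun u v => by rw [hm, hm, mul_comm' P], mi, fun m' h => ?_⟩
  · exact (BB_pos (ι (π a0)) fun f => na (by rw [← h1 (π a0), f, map_zero])).ne'
      (LinearMap.congr_fun₂ e (π a0) (π a0))
  · rw [LinearMap.compl₁₂_apply, b1, b1, BB_inv g.2]; rfl
  · obtain ⟨c, hc⟩ := mul_right_surjective₀ (mt (key m mi) m0)
      (BB (ι (m' (π (sy (cv ℝ leechU) (cv ℝ leechU))) (π (Xv ℝ leechU)))) (Xv ℝ leechU))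
    refine ⟨c, sub_eq_zero.1 (key _ (fun g u v => by simp [h, mi]) ?_)⟩
    simp only [LinearMap.sub_apply, LinearMap.smul_apply, map_sub, map_smul, smul_eq_mul]
    exact sub_eq_zero.2 hc.symm

end CL.Nor
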