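import Cfsg.Agent.SPOR.MP.Deg
import Cfsg.Agent.SPOR.MO.AxMain

/-!
An invariant trilinear form on the Griess module which has the identity in its radicals is
determined by one of its values.
-/

set_option autoImplicit false

namespace CL.Nor

open Cfsg CL.Leech CL.MT CL.Gr CL.MO CL.Golay CL.Deg Matrix
open Cfsg.Spor (leechU leechU')

/-- the symmetric product of two vectors -/
noncomputable def sy : (GolayPt → ℝ) →ₗ[ℝ] (GolayPt → ℝ) →ₗ[ℝ] VV ℝ :=
  LinearMap.mk₂ ℝ (fun x y => iA (Ce.sv x y))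
    (fun _ _ _ => Prod.ext (Subtype.ext (by
      simp only [iA, Ce.sv, Prod.fst_add, Submodule.coe_add, add_vecMulVec, vecMulVec_add]; abel))
      (by simp [iA]))
    (fun _ _ _ => Prod.ext (Subtype.ext (by simp [iA, Ce.sv, smul_vecMulVec, vecMulVec_smul]))
      (by simp [iA]))
    (fun _ _ _ => Prod.ext (Subtype.ext (by
      simp only [iA, Ce.sv, Prod.fst_add, Submodule.coe_add, add_vecMulVec, vecMulVec_add]; abel))
      (by simp [iA]))
    (fun _ _ _ => Prod.ext (Subtype.ext (by simp [iA, Ce.sv, smul_vecMulVec, vecMulVec_smul]))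
      (by simp [iA]))

theorem sy_apply (x y : GolayPt → ℝ) : sy x y = iA (Ce.sv x y) := rfl

theorem sy_comm (x y : GolayPt → ℝ) : sy x y = sy y x :=
  Prod.ext (Subtype.ext (add_comm _ _)) rfl

/-- the unit vectors -/
noncomputable def un (i : GolayPt) : GolayPt → ℝ := Pi.single i 1

/-- the diagonal units -/
noncomputable abbrev dg (i : GolayPt) : VV ℝ := sy (un i) (un i)

theorem iA_eq (A : Sy ℝ) : iA A = ∑ i, ∑ j, (A.1 i j / 2) • sy (un i) (un j) := by
  refine Prod.ext (Subtype.ext ?_) (by simp [iA, sy_apply, Prod.snd_sum, -Fintype.sum_option])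
  simp only [Prod.fst_sum, AddSubmonoidClass.coe_finsetSum]
  ext a b
  have := congrFun (congrFun (mem_Sy.1 A.2) a) b
  simp only [transpose_apply] at this
  simp [iA, sy_apply, Ce.sv, un, Matrix.sum_apply, vecMulVec_apply, Pi.single_apply,
    Finset.sum_add_distrib, this, -Fintype.sum_option]

theorem sum_sy : ∑ i, sy (un i) (un i) = (8 : ℝ) • ee := by
  refine Prod.ext (Subtype.ext ?_) (by simp [iA, ee, sy_apply, Prod.snd_sum, -Fintype.sum_option])
  simp only [Prod.fst_sum, AddSubmonoidClass.coe_finsetSum]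
  ext a b
  simp [iA, ee, sy_apply, Ce.sv, un, Matrix.sum_apply, vecMulVec_apply, Pi.single_apply,
    Finset.sum_add_distrib, one_apply, eq_comm (a := b), -Fintype.sum_option]
  split_ifs <;> norm_num

theorem sy_D (i : GolayPt) : sy (un i) (un i) = (2 : ℝ) • iA (mD ℝ i) := by
  refine Prod.ext (Subtype.ext ?_) (by simp [iA, sy_apply])
  ext a b
  simp [iA, mD, sy_apply, Ce.sv, un, vecMulVec_apply, Pi.single_apply, single_apply, ite_and,
    eq_comm (a := i)]
  split_ifs <;> norm_num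

theorem sy_S (i j : GolayPt) : sy (un i) (un j) = iA (mS ℝ i j) := by
  refine Prod.ext (Subtype.ext ?_) rfl
  ext a b
  simp [iA, mS, sy_apply, Ce.sv, un, vecMulVec_apply, Pi.single_apply, single_apply, ite_and,
    eq_comm (a := i), eq_comm (a := j)]
  split_ifs <;> norm_num

theorem cv_vC (i j : GolayPt) : cv ℝ (vC i j) = (4 : ℝ) • (un i + un j) := by
  ext p
  simp only [cv, vC, un, Pi.add_apply, Pi.smul_apply, Pi.single_apply]
  split_ifs <;> norm_num

theorem cv_vB (i j : GolayPt) : cv ℝ (vB i j) = (4 : ℝ) • (un i - un j) := by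
  ext p
  simp only [cv, vB, un, Pi.add_apply, Pi.sub_apply, Pi.smul_apply, Pi.single_apply]
  split_ifs <;> norm_num

theorem km_un {k : Co0} {i : GolayPt} {v : leechLattice} (h : k • e8 i = v) :
    km ℝ k *ᵥ un i = (8 : ℝ)⁻¹ • cv ℝ v := by
  rw [← h, ← km_cv two_ne_zero, cv_e8, mulVec_smul, smul_smul]
  simp [un]

theorem km_perm_un (π : M24) (i : GolayPt) : km ℝ (permHom π) *ᵥ un i = un (π.1 i) := by
  rw [km_un (permHom_e8 π i), cv_e8, smul_smul]
  simp [un]

theorem km_sgn_un (c : Code) (i : GolayPt) :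
    km ℝ (sgn c) *ᵥ un i = (if i ∈ c.1 then -1 else 1 : ℝ) • un i := by
  ext p
  simp only [km_sgn, mulVec_diagonal, un, Pi.smul_apply, Pi.single_apply]
  split_ifs <;> simp_all

variable {P : Pk ℝ} {k : Co0} {c : GG P} {v : leechLattice}

theorem A_sy (h : P.dat.A kR k c) (x y : GolayPt → ℝ) :
    c.1 (sy x y) = sy (km ℝ k *ᵥ x) (km ℝ k *ᵥ y) := by
  obtain ⟨_, -, a⟩ := h
  refine Prod.ext (Subtype.ext ?_) (Prod.ext (P.dat.M_inj two_ne_zero ?_) ?_)
  · rw [a.e1]; simp [sy_apply, iA, Ce.sv, mul_add, add_mul, conj_vv]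
  · rw [a.e2]; simp [sy_apply, iA, Dat.M]
  · rw [a.e3]; simp [sy_apply, iA]

theorem A_Xv (h : P.dat.A kR k c) (hv : Sht v) :
    ∃ ε : ℝ, ε * ε = 1 ∧ c.1 (Xv ℝ v) = ε • Xv ℝ (k • v) := by
  obtain ⟨m, o, a⟩ := h
  obtain ⟨ε, h1, h2⟩ : ∃ ε : ℝ, ε * ε = 1 ∧ m * P.x v * mᵀ = ε • P.x (k • v) := by
    rcases o.2 v with e | e
    exacts [⟨1, by simp, e.trans (one_smul _ _).symm⟩, ⟨-1, by simp, e.trans (neg_one_smul _ _).symm⟩]
  refine ⟨ε, h1, ?_⟩
  rw [show Xv ℝ v = ax v 8 - ax v 0 by simp [ax], map_sub, acts_ax a hv h2, acts_ax a hv h2]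
  simp [ax]

theorem R_iA {a : leechLattice} (h : P.dat.R kR a c) (A : Sy ℝ) : c.1 (iA A) = iA A := by
  obtain ⟨_, h1, h2⟩ := h
  rw [acts_xf h1 h2]
  simp [Dat.xf, iA, funext_iff]

theorem R_Xv {a : leechLattice} (h : P.dat.R kR a c) (v : leechLattice) :
    c.1 (Xv ℝ v) = sg ℝ a v • Xv ℝ v := by
  obtain ⟨_, h1, h2⟩ := h
  rw [acts_xf h1 h2]
  refine Prod.ext (by simp [Dat.xf, Xv]) (Prod.ext (funext fun r => ?_) (by simp [Dat.xf, Xv]))
  change sg ℝ a (rp r) * ite _ _ _ = sg ℝ a v * ite _ _ _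
  split_ifs with e
  · rcases e with e | e <;> simp [e, sg, dot_neg_right]
  · simp

theorem vv_dec (w : VV ℝ) : w = iA w.1 + ∑ r, w.2.1 r • Xv ℝ (rp r) + (0, 0, w.2.2) := by
  rw [sum_Xv_rp]; simp [iA]

/-- trilinear forms -/
abbrev Tri : Type := VV ℝ →ₗ[ℝ] VV ℝ →ₗ[ℝ] VV ℝ →ₗ[ℝ] ℝ

/-- an invariant form with the identity in its radicals and with vanishing base value -/
structure IT (P : Pk ℝ) (T : Tri) : Prop where
  inv : ∀ (g : GG P) u v w, T (g.1 u) (g.1 v) (g.1 w) = T u v w
  e1 : ∀ v w, T ee v w = 0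
  e2 : ∀ v w, T v ee w = 0
  e3 : ∀ v w, T v w ee = 0
  al : T (sy (cv ℝ leechU) (cv ℝ leechU)) (Xv ℝ leechU) (Xv ℝ leechU) = 0

namespace IT

variable {T : Tri} (h : IT P T)
include h

theorem flip : IT P (LinearMap.lflip.toLinearMap ∘ₗ T) :=
  ⟨fun g u v w => h.inv g u w v, fun v w => h.e1 w v, fun v w => h.e3 v w, fun v w => h.e2 v w, h.al⟩

theorem neg (g : GG P) {u v w : VV ℝ} {b c : ℝ} (hu : g.1 u = u) (hv : g.1 v = b • v)
    (hw : g.1 w = c • w) (e : b * c = -1) : T u v w = 0 := by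
  have := h.inv g u v w
  rw [hu, hv, hw, map_smul, map_smul, LinearMap.smul_apply, smul_eq_mul, smul_eq_mul, ← mul_assoc,
    mul_comm c, e] at this
  linarith

theorem base (A : Sy ℝ) : T (iA A) (Xv ℝ leechU) (Xv ℝ leechU) = 0 := by
  let β := sy.compr₂ ((T.flip (Xv ℝ leechU)).flip (Xv ℝ leechU))
  have bβ : ∀ x y, β x y = T (sy x y) (Xv ℝ leechU) (Xv ℝ leechU) := fun _ _ => rfl
  have s : ∀ x y, β x y = β y x := fun x y => by rw [bβ, bβ, sy_comm]
  have i : ∀ k : Co0, k • leechU = leechU ∨ k • leechU = -leechU → ∀ x y,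
      β (km ℝ k *ᵥ x) (km ℝ k *ᵥ y) = β x y := fun k hk x y => by
    obtain ⟨c, hc⟩ := (mt P).ex_c k
    obtain ⟨ε, e1, e2⟩ := A_Xv hc sqNorm_leechU
    rw [show Xv ℝ (k • leechU) = Xv ℝ leechU by rcases hk with e | e <;> simp [e, Xv_neg]] at e2
    rw [bβ, bβ, ← h.inv c (sy x y), A_sy hc, e2, map_smul, map_smul, LinearMap.smul_apply, smul_smul, e1,
      one_smul]
  have m : ∀ v ∈ Mset leechU 0, β (cv ℝ v) (cv ℝ v) = β (cv ℝ leechU') (cv ℝ leechU') := fun v hv => by
    obtain ⟨k, rfl⟩ := orbit_U'.ge hv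
    rw [← i k (Or.inl k.2) (cv ℝ leechU'), km_cv two_ne_zero]; rfl
  have eU : leechU = vC none (some 0) := Subtype.ext (by decide)
  have eU' : leechU' = vB none (some 0) := Subtype.ext (by decide)
  have al : β (cv ℝ leechU) (cv ℝ leechU) = 0 := h.al
  generalize hμ : β (cv ℝ leechU') (cv ℝ leechU') = μ at m
  rw [eU', cv_vB] at hμ
  rw [congrArg (cv ℝ) eU, cv_vC] at al
  have o : ∀ i j, i ≠ j → i ≠ none → i ≠ some 0 → j ≠ none → j ≠ some 0 →
      β (un i) (un j) = 0 ∧ β (un i) (un i) + β (un j) (un j) = μ / 16 := fun i j n _ _ _ _ => by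
    have h2 := m (vB i j) ⟨(sqNorm_single_add_single n 4 (-4)).trans rfl, by revert i j; decide +kernel⟩
    have h1 := m (vC i j) ⟨(sqNorm_single_add_single n 4 4).trans rfl, by
      clear h2; revert i j; decide +kernel⟩
    rw [cv_vC] at h1
    rw [cv_vB] at h2
    simp only [map_smul, map_add, map_sub, LinearMap.smul_apply, LinearMap.add_apply,
      LinearMap.sub_apply, smul_eq_mul, s (un j) (un i)] at h1 h2
    constructor <;> linarith
  have d : ∀ i, i ≠ none → i ≠ some 0 → β (un i) (un i) = μ / 32 := fun i h1 h2 => by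
    obtain ⟨j, l, a1, a2, a3, a4, a5, a6, a7⟩ := (by decide +kernel : ∀ i : GolayPt, ∃ j l : GolayPt,
      i ≠ j ∧ i ≠ l ∧ j ≠ l ∧ j ≠ none ∧ j ≠ some 0 ∧ l ≠ none ∧ l ≠ some 0) i
    linarith [(o i j a1 h1 h2 a4 a5).2, (o i l a2 h1 h2 a6 a7).2, (o j l a3 a4 a5 a6 a7).2]
  have w : β (un none) (un none) = β (un (some 0)) (un (some 0)) := by
    obtain ⟨π, h1, h2⟩ := exists_map_tuple (k := 2) (by norm_num) ![none, some 0] ![some 0, none]
      (by decide) (by decide)
    have a : π none = some 0 := h2 0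
    have b : π (some 0) = none := h2 1
    rw [← i (permHom ⟨π, h1⟩) (Or.inl (permHom_fix _ fun p => ?_)), km_perm_un, a]
    change ite _ _ _ = ite _ _ _
    refine if_congr ?_ rfl rfl
    rw [or_comm]
    exact or_congr (by rw [← a, π.apply_eq_iff_eq]) (by rw [← b, π.apply_eq_iff_eq])
  have t : ∑ i, β (un i) (un i) = 0 := by
    simp only [bβ, ← LinearMap.sum_apply, ← map_sum, sum_sy, map_smul, LinearMap.smul_apply, h.e1,
      smul_zero]
  rw [← Finset.add_sum_erase _ _ (Finset.mem_univ none), ← Finset.add_sum_erase _ _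
    (show some 0 ∈ Finset.univ.erase (none : GolayPt) by decide), Finset.sum_congr rfl fun i hi => d i
      (Finset.ne_of_mem_erase (Finset.mem_of_mem_erase hi)) (Finset.ne_of_mem_erase hi),
    Finset.sum_const, show ((Finset.univ.erase (none : GolayPt)).erase (some 0)).card = 22 by decide,
    nsmul_eq_mul] at t
  simp only [map_smul, map_add, map_sub, LinearMap.smul_apply, LinearMap.add_apply,
    LinearMap.sub_apply, smul_eq_mul, s (un (some 0)) (un none)] at hμ al
  obtain rfl : μ = 0 := by push_cast at t; linarith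
  have g : ∀ a, a = none ∨ a = some 0 → ∀ j, j ≠ none → j ≠ some 0 → β (un a) (un j) = 0 :=
    fun a ha j h1 h2 => by
      obtain ⟨n, hn, e1, e2⟩ := (by decide +kernel : ∀ j : GolayPt, j ≠ none → j ≠ some 0 → ∃ n < 12,
        (bas n).testBit 23 = (bas n).testBit 0 ∧ (bas n).testBit 0 ≠ (bas n).testBit (E.enc j)) j h1 h2
      let c : Code := ⟨_, setOf_bas_mem hn⟩
      have c1 : none ∈ c.1 ↔ some 0 ∈ c.1 := by
        simp only [c, Enc.mem_setOf]; exact Bool.eq_iff_iff.1 e1
      have c2 : ¬ (some 0 ∈ c.1 ↔ j ∈ c.1) := by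
        simp only [c, Enc.mem_setOf]; exact fun e => e2 (Bool.eq_iff_iff.2 e)
      have := i (sgn c) (by
        by_cases e : some 0 ∈ c.1
        · refine Or.inr (Subtype.ext (funext fun p => ?_))
          rw [sgn_apply]
          split_ifs with f
          · rfl
          · have : p ≠ none ∧ p ≠ some 0 := ⟨fun b => f (b ▸ c1.2 e), fun b => f (b ▸ e)⟩
            simp [leechU, Spor.vecU, this]
        · refine Or.inl (Subtype.ext (funext fun p => ?_))
          rw [sgn_apply]
          split_ifs with f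
          · have : p ≠ none ∧ p ≠ some 0 := ⟨fun b => e (c1.1 (b ▸ f)), fun b => e (b ▸ f)⟩
            simp [leechU, Spor.vecU, this]
          · rfl) (un a) (un j)
      rw [km_sgn_un, km_sgn_un, map_smul, map_smul, LinearMap.smul_apply, smul_eq_mul,
        smul_eq_mul] at this
      have c3 : a ∈ c.1 ↔ some 0 ∈ c.1 := by rcases ha with rfl | rfl; exacts [c1, Iff.rfl]
      split_ifs at this <;> first | linarith | tauto
  have z : ∀ i j, β (un i) (un j) = 0 := fun i j => by
    by_cases a : i = none ∨ i = some 0 <;> by_cases b : j = none ∨ j = some 0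
    · rcases a with rfl | rfl <;> rcases b with rfl | rfl <;> linarith [s (un (some 0)) (un none)]
    · exact g i a j (not_or.1 b).1 (not_or.1 b).2
    · exact (s _ _).trans (g j b i (not_or.1 a).1 (not_or.1 a).2)
    · by_cases e : i = j
      · rw [← e, d i (not_or.1 a).1 (not_or.1 a).2, zero_div]
      · exact (o i j e (not_or.1 a).1 (not_or.1 a).2 (not_or.1 b).1 (not_or.1 b).2).1
  simp only [iA_eq A, map_sum, map_smul, LinearMap.sum_apply, LinearMap.smul_apply, ← bβ, z, smul_zero,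
    Finset.sum_const_zero]

theorem uxx (hv : Sht v) (A : Sy ℝ) : T (iA A) (Xv ℝ v) (Xv ℝ v) = 0 := by
  obtain ⟨k, e⟩ := Cfsg.Agent.S0400.result v _ hv sqNorm_leechU
  obtain ⟨c, hc⟩ := (mt P).ex_c k
  obtain ⟨ε, -, e2⟩ := A_Xv hc hv
  rw [show k • v = leechU from e] at e2
  simp only [iA_eq A, map_sum, map_smul, LinearMap.sum_apply, LinearMap.smul_apply, ← h.inv c (sy _ _),
    A_sy hc, e2, sy_apply (_ *ᵥ _), h.base, smul_zero, Finset.sum_const_zero]

theorem ux (hv : Sht v) (A : Sy ℝ) (w : VV ℝ) : T (iA A) (Xv ℝ v) w = 0 := by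
  rw [vv_dec w, map_add, map_add, map_sum, Finset.sum_eq_zero fun r _ => ?_,
    h.neg (zz P) (b := 1) (c := -1) (w := (0, 0, w.2.2)) (by simp [zz_apply, zf, iA])
      (by simp [zz_apply, zf, Xv]) (by simp [zz_apply, zf]) (by simp)]
  · obtain ⟨a, ha⟩ := ex_odd hv
    obtain ⟨q, hq⟩ := (mt P).ex_x a
    simpa using h.neg q (R_iA hq A) (R_Xv hq v) ((R_iA hq w.1).trans (one_smul _ _).symm) (by simp [ha])
  rw [map_smul]
  by_cases e : v = rp r ∨ v = -rp r
  · rw [show Xv ℝ (rp r) = Xv ℝ v by rcases e with e | e <;> simp [e, Xv_neg], h.uxx hv, smul_zero]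
  obtain ⟨a, ha⟩ := not_forall.1 fun f => e (by
    rcases (cong_of_sg (F := ℝ) two_ne_zero f).short (hv.le.trans (by norm_num))
      ((rp_sht r).le.trans (by norm_num)) with f | f | f
    exacts [Or.inl f, Or.inr f, absurd (hv.symm.trans f.1) (by norm_num)])
  obtain ⟨q, hq⟩ := (mt P).ex_x a
  rw [h.neg q (R_iA hq A) (R_Xv hq v) (R_Xv hq _), smul_zero]
  rw [sg_comm a, sg_comm a]
  rcases sg_cases (F := ℝ) v a with f | f <;> rcases sg_cases (F := ℝ) (rp r) a with f' | f' <;>
    simp_all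

theorem ds (i : GolayPt) {j l : GolayPt} (n : j ≠ l) (w : VV ℝ) :
    T (sy (un i) (un i)) (sy (un j) (un l)) w = 0 := by
  have h1 : (sig P).1 (iA (mD ℝ i)) = iA (mD ℝ i) := sig_u P (.U (.D i))
  have h2 : (sig P).1 (iA (mS ℝ j l)) = Xv ℝ (vB j l) + Xv ℝ (vC j l) := sig_u P (.U (.S j l n))
  rw [sy_D, sy_S, ← h.inv (sig P), map_smul, h1, h2, map_smul, LinearMap.smul_apply, map_add,
    LinearMap.smul_apply, LinearMap.add_apply, h.ux ((sqNorm_single_add_single n 4 (-4)).trans rfl),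
    h.ux ((sqNorm_single_add_single n 4 4).trans rfl)]
  simp

theorem frame {v w w' : leechLattice} (hv : (k⁻¹ • v) ∈ stdX) (hw : (k⁻¹ • w) ∈ stdX)
    (hw' : (k⁻¹ • w') ∈ stdX) (n : w ≠ w') (n' : w ≠ -w') (x : VV ℝ) :
    T (sy (cv ℝ v) (cv ℝ v)) (sy (cv ℝ w) (cv ℝ w')) x = 0 := by
  obtain ⟨c, hc⟩ := (mt P).ex_c k⁻¹
  obtain ⟨i, e⟩ := (mem_stdCross_iff _).1 hv
  obtain ⟨j, f⟩ := (mem_stdCross_iff _).1 hw
  obtain ⟨l, g⟩ := (mem_stdCross_iff _).1 hw'
  have : j ≠ l := by
    rintro rfl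
    rw [← (MulAction.injective k⁻¹).ne_iff] at n n'
    rcases f with f | f <;> rcases g with g | g <;> simp_all
  rw [← h.inv c, A_sy hc, A_sy hc, km_cv two_ne_zero, km_cv two_ne_zero, km_cv two_ne_zero]
  have := h.ds i this (c.1 x)
  unfold un at this
  rcases e with e | e <;> rcases f with f | f <;> rcases g with g | g <;>
    simp [e, f, g, cv_neg, cv_e8, this]

theorem tetrad (x : VV ℝ) : T (dg none + dg (some 0) + dg (some 1) + dg (some 2))
    (dg none + dg (some 0) - dg (some 1) - dg (some 2)) x = 0 := by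
  obtain ⟨k, e⟩ := trans_64 (u := vC none (some 0) + vC (some 1) (some 2)) (by decide +kernel)
    (sqNorm_e8 none)
  have m : ∀ v z : leechLattice, sqNorm v.1 = 64 → vC none (some 0) + vC (some 1) (some 2) - v = 2 • z →
      k⁻¹⁻¹ • v ∈ stdX := fun v z h1 h2 => by
    rw [stdX_eq_class none, inv_inv, ← e]
    exact ⟨(sqNorm_smul _ _).trans h1, Cong.smul ⟨z, h2⟩ k⟩
  have m1 := m _ 0 (by decide +kernel) (sub_self _)
  have m2 := m (vC none (some 0) - vC (some 1) (some 2)) (vC (some 1) (some 2)) (by decide +kernel)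
    (Subtype.ext (by decide +kernel))
  have m3 := m (vB none (some 0) + vB (some 1) (some 2)) (vC (some 0) (some 2)) (by decide +kernel)
    (Subtype.ext (by decide +kernel))
  have m4 := m (vB none (some 0) - vB (some 1) (some 2)) (vC (some 0) (some 1)) (by decide +kernel)
    (Subtype.ext (by decide +kernel))
  have f := fun {v} hv => h.frame (v := v) hv m1 m2 (by decide +kernel) (by decide +kernel) x
  have f1 := f m1
  have f2 := f m2
  have f3 := f m3
  have f4 := f m4
  have g1 := fun i => h.ds i (j := none) (l := some 0) (by decide) x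
  have g2 := fun i => h.ds i (j := some 1) (l := some 2) (by decide) x
  rw [show sy (cv ℝ (vC none (some 0) + vC (some 1) (some 2)))
    (cv ℝ (vC none (some 0) - vC (some 1) (some 2))) = (16 : ℝ) • (dg none + dg (some 0) - dg (some 1) -
      dg (some 2)) + (32 : ℝ) • (sy (un none) (un (some 0)) - sy (un (some 1)) (un (some 2))) by
    simp only [sub_eq_add_neg, cv_add, cv_neg, cv_vC, dg, map_add, map_neg, map_smul,
      LinearMap.add_apply, LinearMap.smul_apply, sy_comm _ (un none), sy_comm (un (some 2)),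
      sy_comm (un (some 1)) (un (some 0))]
    module] at f1 f2 f3 f4
  generalize dg none + dg (some 0) - dg (some 1) - dg (some 2) = s at f1 f2 f3 f4 ⊢
  generalize sy (un none) (un (some 0)) = s₁ at f1 f2 f3 f4 g1
  generalize sy (un (some 1)) (un (some 2)) = s₂ at f1 f2 f3 f4 g2
  simp only [sub_eq_add_neg, cv_add, cv_neg, cv_vC, cv_vB, dg, map_add, map_neg, map_smul,
    LinearMap.add_apply, LinearMap.smul_apply, LinearMap.neg_apply, smul_eq_mul] at f1 f2 f3 f4 ⊢
  linear_combination (f1 + f2 + f3 + f4) / 1024 - 2 * (g1 none + g1 (some 0) + g1 (some 1) + g1 (some 2) -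
    g2 none - g2 (some 0) - g2 (some 1) - g2 (some 2))

theorem perm {n : ℕ} (hn : n ≤ 5) (x y : Fin n → GolayPt) (hx : Function.Injective x)
    (hy : Function.Injective y) (a b c : Fin n) :
    T (dg (x a)) (dg (x b)) (dg (x c)) = T (dg (y a)) (dg (y b)) (dg (y c)) := by
  obtain ⟨π, h1, h2⟩ := exists_map_tuple hn x y hx hy
  obtain ⟨g, hg⟩ := (mt P).ex_c (permHom ⟨π, h1⟩)
  simp only [← h.inv g (dg (x a)), dg, A_sy hg, km_perm_un, h2]

theorem ddd (i j l : GolayPt) : T (dg i) (dg j) (dg l) = 0 := by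
  let t := fun i j l => T (dg i) (dg j) (dg l)
  have p1 : ∀ i, t i i i = t none none none := fun i =>
    h.perm (n := 1) (by norm_num) ![i] ![none] (Function.injective_of_subsingleton _)
      (Function.injective_of_subsingleton _) 0 0 0
  have p2 := fun i j (n : i ≠ j) => h.perm (n := 2) (by norm_num) ![i, j] ![none, some 0]
    (by simpa [Fin.cons_injective_iff] using n) (by decide)
  have p3 : ∀ i j l, i ≠ j → i ≠ l → j ≠ l → t i j l = t none (some 0) (some 1) :=
    fun i j l a b c => h.perm (n := 3) (by norm_num) ![i, j, l] ![none, some 0, some 1]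
      (fun x y => by fin_cases x <;> fin_cases y <;> simp [a, b, c, a.symm, b.symm, c.symm])
      (by decide) 0 1 2
  have q1 : ∀ i j, i ≠ j → t i i j = t none none (some 0) := fun i j n => p2 i j n 0 0 1
  have q2 : ∀ i j, i ≠ j → t i j i = t none (some 0) none := fun i j n => p2 i j n 0 1 0
  have q3 : ∀ i j, i ≠ j → t j i i = t (some 0) none none := fun i j n => p2 i j n 1 0 0
  have s : ∀ f : VV ℝ →ₗ[ℝ] ℝ, f ee = 0 → ∑ i, f (dg i) = 0 := fun f e => by
    rw [← map_sum, show ∑ i, dg i = _ from sum_sy, map_smul, e, smul_zero]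
  have u : ∀ (f : GolayPt → ℝ) (y : ℝ), ∑ i, f i = 0 → (∀ i, i ≠ none → i ≠ some 0 → f i = y) →
      f none + f (some 0) + 22 * y = 0 := fun f y e a => by
    rw [← Finset.add_sum_erase _ _ (Finset.mem_univ none), ← Finset.add_sum_erase _ _
      (show some 0 ∈ Finset.univ.erase (none : GolayPt) by decide), Finset.sum_congr rfl fun i hi => a i
        (Finset.ne_of_mem_erase (Finset.mem_of_mem_erase hi)) (Finset.ne_of_mem_erase hi),
      Finset.sum_const, show ((Finset.univ.erase (none : GolayPt)).erase (some 0)).card = 22 by decide,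
      nsmul_eq_mul] at e
    push_cast at e
    linarith
  have r1 := u (t none none) _ (s _ (h.e3 _ _)) fun i a _ => q1 _ _ a.symm
  have r2 := u (t none · none) _ (s ((T (dg none)).flip (dg none)) (h.e2 _ _)) fun i a _ => q2 _ _ a.symm
  have r3 := u (t · none none) _ (s ((T.flip (dg none)).flip (dg none)) (h.e1 _ _))
    fun i a _ => q3 _ _ a.symm
  have r4 := u (t none (some 0)) _ (s _ (h.e3 _ _)) fun i a b => p3 _ _ _ (by decide) a.symm b.symm
  have r5 := h.tetrad (dg none)
  simp only [map_add, map_sub, LinearMap.add_apply, LinearMap.sub_apply] at r5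
  have z : t none none none = 0 := by
    linarith [q3 (some 0) none (by decide), q3 none (some 1) (by decide), q3 none (some 2) (by decide),
      q1 (some 0) none (by decide), q1 (some 1) none (by decide), q1 (some 2) none (by decide),
      q2 none (some 1) (by decide), q2 none (some 2) (by decide),
      p3 (some 1) (some 0) none (by decide) (by decide) (by decide),
      p3 (some 2) (some 0) none (by decide) (by decide) (by decide),
      p3 (some 0) (some 1) none (by decide) (by decide) (by decide),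
      p3 (some 2) (some 1) none (by decide) (by decide) (by decide),
      p3 (some 0) (some 2) none (by decide) (by decide) (by decide),
      p3 (some 1) (some 2) none (by decide) (by decide) (by decide)]
  change t i j l = 0
  by_cases a : i = j <;> by_cases b : i = l <;> by_cases c : j = l
  · rw [← a, ← b, p1, z]
  · exact (c (a ▸ b)).elim
  · exact (b (a ▸ c)).elim
  · rw [← a, q1 _ _ b]; linarith
  · exact (a (b ▸ c.symm)).elim
  · rw [← b, q2 _ _ a]; linarith
  · rw [← c, q3 _ _ (Ne.symm a)]; linarith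
  · rw [p3 _ _ _ a b c]; linarith [q3 (some 0) none (by decide)]

theorem duu (i : GolayPt) (A B : Sy ℝ) : T (dg i) (iA A) (iA B) = 0 := by
  simp only [iA_eq A, iA_eq B, map_sum, map_smul, LinearMap.sum_apply, LinearMap.smul_apply]
  refine Finset.sum_eq_zero fun a _ => Finset.sum_eq_zero fun b _ => smul_eq_zero_of_right _
    (Finset.sum_eq_zero fun c _ => Finset.sum_eq_zero fun d _ => smul_eq_zero_of_right _ ?_)
  by_cases e : c = d
  · by_cases f : a = b
    · rw [e, f]; exact h.ddd i d b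
    · exact h.flip.ds i f _
  · exact h.ds i e _

theorem plus (i : GolayPt) {u w : VV ℝ} (hu : (zz P).1 u = u) (hw : (zz P).1 w = w) :
    T (dg i) u w = 0 := by
  have k : ∀ u : VV ℝ, (zz P).1 u = u → u = iA u.1 + ∑ r, u.2.1 r • Xv ℝ (rp r) := fun u e => by
    have h1 : -u.2.2 = u.2.2 := congrArg (fun v => v.2.2) e
    have h2 : u.2.2 = 0 := by linear_combination (norm := module) (-(2 : ℝ)⁻¹) • h1
    have := vv_dec u
    rwa [h2, ← Prod.zero_eq_mk, ← Prod.zero_eq_mk, add_zero] at this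
  have h1 := fun r => h.ux (rp_sht r) (Ce.sv (un i) (un i))
  have h2 : ∀ r w, T (dg i) w (Xv ℝ (rp r)) = 0 := fun r =>
    h.flip.ux (rp_sht r) (Ce.sv (un i) (un i))
  rw [k u hu, k w hw]
  simp only [map_add, map_sum, map_smul, LinearMap.add_apply, LinearMap.sum_apply, LinearMap.smul_apply,
    h.duu, h2, show ∀ r w, T (dg i) (Xv ℝ (rp r)) w = 0 from h1, smul_zero, Finset.sum_const_zero,
    add_zero]

theorem dg_zero (i : GolayPt) (u w : VV ℝ) : T (dg i) u w = 0 := by
  have k : ∀ g : GG P, g.1 (dg i) = dg i → (g * zz P * g⁻¹).1 (dg i) = dg i → ∀ u w,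
      T (dg i) u ((g * zz P * g⁻¹).1 w) = -T (dg i) u w := fun g h1 h2 u w => by
    set y := g * zz P * g⁻¹ with hy
    have s : ∀ v, y.1 (y.1 v) = v := fun v => by
      change (y * y).1 v = v
      rw [hy, conj_mul, (mt P).lx.z_sq, mul_one, mul_inv_cancel]; rfl
    have f : ∀ v, (zz P).1 (g⁻¹.1 (v + y.1 v)) = g⁻¹.1 (v + y.1 v) := fun v => by
      change (zz P * g⁻¹).1 _ = _
      rw [show zz P * g⁻¹ = g⁻¹ * y by rw [hy]; group]
      change g⁻¹.1 (y.1 _) = _
      rw [map_add, s, add_comm]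
    have e := h.plus i (f u) (f w)
    rw [← h.inv g, h1, show ∀ v, g.1 (g⁻¹.1 v) = v from g.1.apply_symm_apply,
      show ∀ v, g.1 (g⁻¹.1 v) = v from g.1.apply_symm_apply] at e
    have e1 := h.inv y (dg i) u w
    have e2 := h.inv y (dg i) u (y.1 w)
    rw [h2] at e1 e2
    rw [s] at e2
    simp only [map_add, LinearMap.add_apply] at e
    linarith
  have hs : (sig P).1 (dg i) = dg i := by
    rw [dg, sy_D, map_smul]; exact congrArg _ (sig_u P (.U (.D i)))
  obtain ⟨j, hj⟩ := Dat.ex_R (D := P.dat) (K := kR) vO (PM.refl _)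
  have e : sig P * zz P * (sig P)⁻¹ = j := mul_inv_eq_iff_eq_mul.2 (Subtype.ext (LinearEquiv.ext fun v =>
    (sig_zf P v).trans (acts_xf (PM.refl _) hj _).symm))
  have R : P.dat.R kR vO j := ⟨_, PM.refl _, hj⟩
  have M := mt P
  have fQ : ∀ q ∈ QQ P, q.1 (dg i) = dg i := fun q ⟨_, m⟩ => R_iA m _
  obtain ⟨q, hq, e'⟩ := M.lx.exists_conj_eq_mul (M.R_mem R)
    (fun a => not_cong_vO (M.cong_of R (a ▸ M.R_zero))) fun a => not_cong_vO
      (M.cong_of R (a ▸ one_mul (zz P) ▸ M.R_z M.R_zero))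
  have k1 := k 1 rfl (by simpa using fQ _ M.lx.z_mem)
  have k2 := k (sig P) hs (e ▸ fQ _ (M.R_mem R))
  have e2 : q * sig P * zz P * (q * sig P)⁻¹ = j * zz P := by rw [← e', ← e]; group
  have k3 := k (q * sig P) ((congrArg q.1 hs).trans (fQ q hq))
    (e2 ▸ fQ _ (mul_mem (M.R_mem R) M.lx.z_mem)) u w
  rw [e] at k2
  rw [e2] at k3
  simp only [one_mul, inv_one, mul_one] at k1
  linarith [k1 u w, k2 u ((zz P).1 w), show T (dg i) u (j.1 ((zz P).1 w)) = _ from k3]

end IT

end CL.Nor
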