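import Cfsg.Agent.SPOR.MP.P10E
import Cfsg.Agent.SPOR.MP.Row22
import Cfsg.Agent.CLAS.SLBasic

/-! Normalisers of elementary abelian `2`-groups inducing the full linear group. -/

set_option autoImplicit false

namespace CL.MP

open Cfsg CL.LX CL.MSS Subgroup Matrix Function

variable {G : Type*} [Group G]

theorem exists_adjust {Q E : Subgroup G} {z c : G} [Finite Q] (h : ES Q z) (hE : E ≤ Q) (hz : z ∈ E)
    (hc : ∀ x ∈ E, c * x * c⁻¹ = x ∨ c * x * c⁻¹ = x * z) :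
    ∃ y ∈ Q, y⁻¹ * c ∈ centralizer (E : Set G) := by
  have m : ∀ {x}, c * x * c⁻¹ = x → x ∈ centralizer {c} := fun e =>
    mem_centralizer_singleton_iff.2 (mul_inv_eq_iff_eq_mul.1 e).symm
  by_cases hall : ∀ x ∈ E, c * x * c⁻¹ = x
  · exact ⟨1, one_mem _, fun x hx => by simpa using (mul_inv_eq_iff_eq_mul.1 (hall x hx)).symm⟩
  push Not at hall
  obtain ⟨x, hx, hxc⟩ := hall
  have hxz := (hc x hx).resolve_left hxc
  obtain ⟨y, hy, h1, h2⟩ := h.exists_centralizes_conj (K := E ⊓ centralizer {c}) (inf_le_left.trans hE)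
    ⟨hz, m ((hc z hz).resolve_right fun e => h.z_ne (by simpa [h.z_sq] using e))⟩ (hE hx)
    fun hm => hxc (by rw [← mem_centralizer_singleton_iff.1 hm.2]; group)
  refine ⟨y, hy, fun w hw => ?_⟩
  suffices e : c * w * c⁻¹ = y * w * y⁻¹ by
    calc _ = y⁻¹ * (y * w * y⁻¹) * c := by group
      _ = _ := by rw [← e]; group
  rcases hc w hw with e | e
  · rw [e, ← h1 w ⟨hw, m e⟩, mul_inv_cancel_right]
  · have e2 : c * (x⁻¹ * w) * c⁻¹ = x⁻¹ * w := by
      calc _ = (c * x * c⁻¹)⁻¹ * (c * w * c⁻¹) := by group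
        _ = _ := by rw [e, hxz, h.z_comm x (hE hx), h.z_comm w (hE hw)]; group
    have e3 := h1 _ ⟨E.mul_mem (inv_mem hx) hw, m e2⟩
    calc _ = c * x * c⁻¹ * (c * (x⁻¹ * w) * c⁻¹) := by group
      _ = y * x * y⁻¹ * (x⁻¹ * w * y) * y⁻¹ := by rw [e2, hxz, h2]; group
      _ = _ := by rw [e3]; group

section

variable {ι : Type} [Fintype ι] [DecidableEq ι] {φ : (ι → ZMod 2) → G} (hφ : ∀ u v, φ (u + v) = φ u * φ v)
  (hi : Injective φ)
include hφ hi

theorem exists_tv {P : Subgroup G} [Finite P] {i j : ι} (hij : i ≠ j) (h : ES P (φ (Pi.single i 1)))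
    (hP : img hφ ≤ P) :
    ∃ y ∈ P, ∀ v, y * φ v * y⁻¹ = φ ((SpecialLinearGroup.transvection hij (1 : ZMod 2)).1 *ᵥ v) := by
  let K : Subgroup G :=
    { carrier := {x | ∃ v, v j = 0 ∧ φ v = x}
      one_mem' := ⟨0, rfl, add_zero' hφ⟩
      mul_mem' := by rintro _ _ ⟨u, a, rfl⟩ ⟨v, b, rfl⟩; exact ⟨_, by simp [a, b], hφ u v⟩
      inv_mem' := by rintro _ ⟨u, a, rfl⟩; exact ⟨u, a, (inv_eq_of_mul_eq_one_right (add_sq hφ u)).symm⟩ }
  obtain ⟨y, hy, h1, h2⟩ := h.exists_centralizes_conj (K := K) (fun _ ⟨v, _, e⟩ => hP ⟨v, e⟩)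
    ⟨_, Pi.single_eq_of_ne' hij _, rfl⟩ (hP ⟨Pi.single j 1, rfl⟩) fun ⟨v, a, e⟩ => by simp [hi e] at a
  refine ⟨y, hy, conj_of_basis hφ (mulVec_add _) fun k => ?_⟩
  rw [SpecialLinearGroup.transvection_coe, add_mulVec, one_mulVec, single_mulVec, one_mul]
  by_cases e : k = j
  · subst e
    rw [h2, Pi.single_eq_same, hφ]
    rfl
  · rw [Pi.single_eq_of_ne' e, show update (0 : ι → ZMod 2) i 0 = 0 from update_eq_self i 0, add_zero, ← h1 _ ⟨_, Pi.single_eq_of_ne' e _, rfl⟩,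
      mul_inv_cancel_right]

theorem exists_actSL [Finite G] (h : ∀ i, ∃ P, ES P (φ (Pi.single i 1)) ∧ img hφ ≤ P) :
    ∃ ρ : normalizer (img hφ : Set G) →* SpecialLinearGroup ι (ZMod 2), Surjective ρ ∧
      ∀ n, ρ n = 1 ↔ n.1 ∈ centralizer (img hφ : Set G) := by
  obtain ⟨ρ, hρ⟩ := exists_act hφ hi
  let θ : normalizer (img hφ : Set G) →* SpecialLinearGroup ι (ZMod 2) := MonoidHom.mk'
    (fun n => ⟨LinearMap.toMatrix' (ρ n), (by decide : ∀ a : ZMod 2, a ≠ 0 → a = 1) _ (by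
      rw [LinearMap.det_toMatrix']; exact (ρ n).isUnit_det'.ne_zero)⟩)
    fun a b => Subtype.ext (by rw [map_mul]; exact LinearMap.toMatrix'_mul _ _)
  have uniq : ∀ {n} {g : SpecialLinearGroup ι (ZMod 2)}, (∀ v, n.1 * φ v * n.1⁻¹ = φ (g.1 *ᵥ v)) → θ n = g :=
    fun e => Subtype.ext (mulVec_injective (funext fun v => hi (by
      rw [← e, hρ]; exact congrArg φ (LinearMap.toMatrix'_mulVec _ _))))
  refine ⟨θ, MonoidHom.range_eq_top.1 (CL.SL.eq_top_of_transvection_mem _ fun i j hij c => ?_),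
    fun n => ⟨fun e => ?_, fun e => uniq fun v => ?_⟩⟩
  · rcases (by decide : ∀ c : ZMod 2, c = 0 ∨ c = 1) c with rfl | rfl
    · rw [SpecialLinearGroup.transvection_coeff_zero]; exact one_mem _
    · obtain ⟨P, h1, h2⟩ := h i
      obtain ⟨y, -, e⟩ := exists_tv hφ hi hij h1 h2
      exact ⟨⟨y, mem_norm_img hφ fun k => ⟨_, (e _).symm⟩⟩, uniq e⟩
  · rintro _ ⟨v, rfl⟩
    refine (mul_inv_eq_iff_eq_mul.1 ?_).symm
    rw [hρ, ← LinearEquiv.coe_coe, ← LinearMap.toMatrix'_mulVec,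
      show LinearMap.toMatrix' _ = 1 from congrArg Subtype.val e, one_mulVec]
  · rw [← e _ ⟨v, rfl⟩, mul_inv_cancel_right]; exact congrArg φ (one_mulVec v).symm

end

theorem pCore_SL5 : pCore 2 (SpecialLinearGroup (Fin 5) (ZMod 2)) = ⊥ := by
  have := CL.SL.psl_isSimpleGroup_of_three_le (ι := Fin 5) (F := ZMod 2) (by simp)
  have h : center (SpecialLinearGroup (Fin 5) (ZMod 2)) = ⊥ :=
    card_eq_one.1 (by rw [CL.SL.card_center_SL]; simp)
  have := ((QuotientGroup.quotientMulEquivOfEq h).trans QuotientGroup.quotientBot).symm.isSimpleGroup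
  refine (inferInstance : (pCore 2 _).Normal).eq_bot_or_eq_top.resolve_right fun e => ?_
  have : Fact (Nat.Prime 2) := ⟨Nat.prime_two⟩
  have := ((e ▸ isPGroup_pCore 2 _ : IsPGroup 2 (⊤ : Subgroup _)).of_equiv topEquiv).isNilpotent
  exact (Group.IsSolvable.commutator_lt_top_of_nontrivial _).ne
    (CL.SL.commutator_eq_top_of_three_le (ι := Fin 5) (F := ZMod 2) (by simp))

theorem exists_ext3 {N : Type*} [Group N] {C : Subgroup N} [C.Normal] (π : C →* Equiv.Perm (Fin 3))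
    (hs : Surjective π) (hp : IsPGroup 2 π.ker) : ∃ τ : N →* Equiv.Perm (Fin 3), ∀ c : C, τ c = π c := by
  have ex : ∀ n : N, ∃ l, ∀ c, π (MulAut.conjNormal n c) = l * π c * l⁻¹ := fun n => by
    have hs' : Surjective (π.comp (MulAut.conjNormal n : MulAut C).toMonoidHom) :=
      hs.comp (MulAut.conjNormal n : MulAut C).surjective
    let β := π.liftOfSurjective hs ⟨π.comp (MulAut.conjNormal n : MulAut C).toMonoidHom, fun c hc =>
      ((map_pCore_le hs').trans pCore_perm3.le) ⟨c, le_pCore hp hc, rfl⟩⟩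
    have hβ : ∀ c, β (π c) = π (MulAut.conjNormal n c) := fun c => π.liftOfRightInverse_comp_apply _ _ _ _
    have hb : Injective β := Finite.injective_iff_surjective.2 fun x =>
      let ⟨c, e⟩ := hs' x; ⟨_, (hβ c).trans e⟩
    obtain ⟨l, h1, h2⟩ := (by decide : ∀ a b : Equiv.Perm (Fin 3), a * a = 1 ∧ b * b = 1 ∧ a ≠ 1 ∧ b ≠ 1 ∧
      a ≠ b → ∃ l, a = l * .swap 1 2 * l⁻¹ ∧ b = l * .swap 0 2 * l⁻¹) (β (.swap 1 2)) (β (.swap 0 2))
      ⟨by rw [← map_mul, Equiv.swap_mul_self, map_one], by rw [← map_mul, Equiv.swap_mul_self, map_one],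
      (map_ne_one_iff β hb).2 (by decide), (map_ne_one_iff β hb).2 (by decide), hb.ne (by decide)⟩
    exact ⟨l, fun c => (hβ c).symm.trans
      ((perm3_eq_top (β.eqLocus (MulAut.conj l).toMonoidHom) h1 h2).ge (mem_top (π c)))⟩
  have uniq : ∀ {n : N} {l l'}, (∀ c, π (MulAut.conjNormal n c) = l * π c * l⁻¹) →
      (∀ c, π (MulAut.conjNormal n c) = l' * π c * l'⁻¹) → l = l' := fun a b =>
    (by decide : ∀ l l' : Equiv.Perm (Fin 3), (∀ x, l * x * l⁻¹ = l' * x * l'⁻¹) → l = l') _ _ fun x =>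
      let ⟨c, e⟩ := hs x; e ▸ (a c).symm.trans (b c)
  choose f hf using ex
  exact ⟨MonoidHom.mk' f fun a b => uniq (hf _) fun c => by
      rw [map_mul, MulAut.mul_apply, hf, hf]; group,
    fun c => uniq (hf _) fun d => by rw [← map_inv, ← map_mul, ← map_mul]; rfl⟩

theorem exists_prod {N C : Subgroup G} [Finite G] {L : Type*} [Group L] (hCN : C ≤ N) (ρ : N →* L)
    (hρ : Surjective ρ) (hk : ∀ n, ρ n = 1 ↔ n.1 ∈ C) (π : C →* Equiv.Perm (Fin 3)) (hs : Surjective π)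
    (hp : IsPGroup 2 π.ker) : ∃ θ : N →* Equiv.Perm (Fin 3) × L, Surjective θ ∧
      θ.ker = (π.ker.map C.subtype).subgroupOf N := by
  have : (C.subgroupOf N).Normal := (show ρ.ker = C.subgroupOf N from Subgroup.ext hk) ▸ inferInstance
  let e := subgroupOfEquivOfLe hCN
  obtain ⟨τ, hτ⟩ := exists_ext3 (π.comp e.toMonoidHom) (hs.comp e.surjective)
    (hp.comap_of_injective e.toMonoidHom e.injective)
  refine ⟨τ.prod ρ, fun ⟨a, g⟩ => ?_, Subgroup.ext fun n => ⟨fun h => ?_, fun ⟨c, h1, h2⟩ => ?_⟩⟩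
  · obtain ⟨n, rfl⟩ := hρ g
    obtain ⟨c, hc⟩ := (hs.comp e.surjective) (a * (τ n)⁻¹)
    refine ⟨c * n, Prod.ext ?_ ?_⟩
    · exact (map_mul τ _ _).trans (by rw [hτ]; exact eq_mul_inv_iff_mul_eq.1 hc)
    · exact (map_mul ρ _ _).trans (by rw [(hk _).2 c.2, one_mul])
  · have h1 := (hk n).1 (congrArg Prod.snd h)
    exact ⟨⟨n, h1⟩, (hτ ⟨n, h1⟩).symm.trans (congrArg Prod.fst h), rfl⟩
  · have h3 : n.1 ∈ C := (show c.1 = n.1 from h2) ▸ c.2
    exact Prod.ext ((hτ ⟨n, h3⟩).trans ((congrArg π (Subtype.ext h2.symm)).trans h1)) ((hk n).2 h3)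

end CL.MP
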