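import Mathlib
import Cfsg.Agent.SPOR.MonType2

/-! The normaliser `2^{1+24}.Co3` of a cyclic subgroup of order four in a group of Monster type. -/

set_option autoImplicit false

namespace CL.MP

open Cfsg CL.Leech CL.LX CL.MSS CL.MT

variable {G : Type*} [Group G]

theorem es_subgroupOf {P N : Subgroup G} {y : G} (h : ES P y) (hle : P ≤ N) :
    ES (P.subgroupOf N) ⟨y, hle h.z_mem⟩ :=
  { z_mem := h.z_mem
    z_ne := fun e => h.z_ne (congrArg Subtype.val e)
    z_sq := Subtype.ext h.z_sq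
    z_comm := fun x hx => Subtype.ext (h.z_comm x hx)
    cent := fun x hx hy => (h.cent x hx fun y hy' =>
      congrArg Subtype.val (hy ⟨y, hle hy'⟩ hy')).imp Subtype.ext Subtype.ext
    comm := fun x hx y hy => (h.comm x hx y hy).imp Subtype.ext Subtype.ext
    sq := fun x hx => (h.sq x hx).imp Subtype.ext Subtype.ext
    nonab := by
      obtain ⟨x, hx, y, hy, e⟩ := h.nonab
      exact ⟨⟨x, hle hx⟩, hx, ⟨y, hle hy⟩, hy, fun e' => e (congrArg Subtype.val e')⟩ }

theorem mem_zpowers_four {x z y : G} (hx : x * x = z) (hz : z * z = 1) :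
    y ∈ Subgroup.zpowers x ↔ y = 1 ∨ y = x ∨ y = z ∨ y = x * z := by
  have h4 : x ^ (4 : ℤ) = 1 := by
    rw [show (4 : ℤ) = 2 + 2 by norm_num, zpow_add, zpow_two, hx, hz]
  constructor
  · rintro ⟨k, rfl⟩
    have e : x ^ k = x ^ (k % 4) := by
      conv_lhs => rw [← Int.mul_ediv_add_emod k 4, zpow_add, zpow_mul, h4, one_zpow, one_mul]
    show x ^ k = 1 ∨ x ^ k = x ∨ x ^ k = z ∨ x ^ k = x * z
    rw [e]
    have : k % 4 = 0 ∨ k % 4 = 1 ∨ k % 4 = 2 ∨ k % 4 = 3 := by omega
    rcases this with e | e | e | e <;> rw [e]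
    · simp
    · simp
    · right; right; left; rw [zpow_two, hx]
    · right; right; right
      rw [show (3 : ℤ) = 1 + 2 by norm_num, zpow_add, zpow_one, zpow_two, hx]
  · have hm := Subgroup.mem_zpowers x
    have hzm : z ∈ Subgroup.zpowers x := hx ▸ mul_mem hm hm
    rintro (rfl | rfl | rfl | rfl)
    exacts [one_mem _, hm, hzm, mul_mem hm hzm]

theorem sqNorm_leechV' : sqNorm ((Spor.leechV : leechLattice) : GolayPt → ℤ) = 48 := by
  decide +kernel

/-- inclusion of `Co3` into `Co0` -/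
def ι3 : Spor.Co3 →* Co0 := Subgroup.inclusion inf_le_left

theorem ι3_smul (l : Spor.Co3) : ι3 l • Spor.leechV = Spor.leechV := l.2.2

variable {z : G} {Q : Subgroup G} {R : leechLattice → G → Prop} {A : Co0 → G → Prop}

theorem row_four [Finite G] (h : MT z Q R A) :
    ∃ (C N : Subgroup G) (R : Subgroup ↥N), IsCyclic ↥C ∧ Nat.card ↥C = 4 ∧
      N = Subgroup.normalizer (C : Set G) ∧ Cfsg.IsExtraspecial 2 ↥R ∧ Nat.card ↥R = 2 ^ 25 ∧
      ∃ _ : R.Normal, Nonempty (↥N ⧸ R ≃* ↥Cfsg.Spor.Co3) := by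
  obtain ⟨x, hx⟩ := h.ex_x Spor.leechV
  have hv := sqNorm_leechV'
  have hxQ := h.R_mem hx
  have hx2 : x * x = z := by
    rcases h.lx.sq x hxQ with e | e
    · have := (h.sq_iff hx).1 e
      rw [hv] at this; omega
    · exact e
  have hz1 := h.lx.z_ne
  have hzz := h.lx.z_sq
  have hxz := h.lx.z_comm x hxQ
  have hord : orderOf x = 4 := by
    have : orderOf x = 2 ^ (1 + 1) := by
      haveI : Fact (Nat.Prime 2) := ⟨Nat.prime_two⟩
      refine orderOf_eq_prime_pow ?_ ?_
      · rw [pow_one, pow_two, hx2]; exact hz1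
      · rw [show 2 ^ (1 + 1) = 2 + 2 by norm_num, pow_add, pow_two, hx2, hzz]
    simpa using this
  have hsq : x * z * (x * z) = z := by
    rw [mul_assoc, ← mul_assoc z, ← hxz, mul_assoc, hzz, mul_one, hx2]
  set N := Subgroup.normalizer ((Subgroup.zpowers x : Subgroup G) : Set G) with hN
  have hmem : ∀ c, c ∈ N ↔ c * x * c⁻¹ = x ∨ c * x * c⁻¹ = x * z := by
    have aux : ∀ c, (c * x * c⁻¹ = x ∨ c * x * c⁻¹ = x * z) →
        ∀ y ∈ Subgroup.zpowers x, c * y * c⁻¹ ∈ Subgroup.zpowers x := by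
      rintro c hc _ ⟨k, rfl⟩
      show c * x ^ k * c⁻¹ ∈ _
      rw [← conj_zpow]
      refine zpow_mem ((mem_zpowers_four hx2 hzz).2 ?_) k
      tauto
    intro c
    constructor
    · intro hc
      have h1 := (Subgroup.mem_normalizer_iff.1 hc x).1 (Subgroup.mem_zpowers x)
      have h2 : c * x * c⁻¹ * (c * x * c⁻¹) ≠ 1 := by
        rw [show c * x * c⁻¹ * (c * x * c⁻¹) = c * (x * x) * c⁻¹ by group, hx2]
        simpa using hz1
      rcases (mem_zpowers_four hx2 hzz).1 h1 with e | e | e | e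
      · exact absurd (by rw [e, mul_one]) h2
      · exact Or.inl e
      · exact absurd (by rw [e, hzz]) h2
      · exact Or.inr e
    · intro hc
      exact Subgroup.mem_normalizer_fintype (fun y hy => aux c hc y hy)
  have hcz : ∀ c ∈ N, c * z = z * c := by
    intro c hc
    have e0 : c * z * c⁻¹ = c * x * c⁻¹ * (c * x * c⁻¹) := by rw [← hx2]; group
    rw [← mul_inv_eq_iff_eq_mul, e0]
    rcases (hmem c).1 hc with e | e <;> rw [e]
    exacts [hx2, hsq]
  have hQN : Q ≤ N := fun q hq => (hmem q).2 (h.lx.conj_cases hxQ hq)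
  obtain ⟨θ, h1, h2, h3⟩ := exists_hom_of_rel (L := Spor.Co3) N Q (fun c l => A (ι3 l) c)
    (fun c hc => by
      obtain ⟨k, hk⟩ := h.ex_g c (hcz c hc)
      have h1 := h.R_conj hk hx
      have h2 : Cong (k • Spor.leechV) Spor.leechV := (((h.R_cong hx h1).2 ((hmem c).1 hc))).symm
      rcases h2.short (by rw [sqNorm_smul]; omega) (by omega) with e | e | e
      · exact ⟨⟨k.1, k.2, e⟩, hk⟩
      · have e' : (neg1 * k) • Spor.leechV = Spor.leechV := by rw [mul_smul, e, neg1_smul, neg_neg]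
        exact ⟨⟨(neg1 * k).1, (neg1 * k).2, e'⟩, h.A_center hk neg1_mem_center⟩
      · omega)
    (fun a b => by rw [map_mul]; exact h.A_mul a b)
    (fun a => by rw [map_inv]; exact h.A_inv a)
    (fun {c l} a => by
      rw [h.A_ker a]
      refine ⟨fun e => ?_, fun e => by rw [e, map_one]; exact one_mem _⟩
      rcases CL.MT.mem_center_iff.1 e with e | e
      · exact Subgroup.inclusion_injective _ (e.trans (map_one ι3).symm)
      · exfalso
        have h1 := ι3_smul l
        rw [e, neg1_smul] at h1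
        have h2 := dot_neg_right ((Spor.leechV : leechLattice) : GolayPt → ℤ) Spor.leechV
        rw [← AddSubgroup.coe_neg, h1, ← sqNorm_eq_dot, hv] at h2
        omega)
  have hs : Function.Surjective θ := fun l => by
    obtain ⟨c, hc⟩ := h.ex_c (ι3 l)
    have h4 := h.R_conj hc hx
    rw [ι3_smul] at h4
    exact ⟨⟨c, (hmem c).2 (h.cases_of hx h4)⟩, h2 _ _ hc⟩
  have hn : (Q.subgroupOf N).Normal := h3 ▸ inferInstance
  refine ⟨Subgroup.zpowers x, N, Q.subgroupOf N, inferInstance, by rw [Nat.card_zpowers, hord], rfl,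
    (es_subgroupOf h.lx.toES hQN).isExtraspecial,
    by rw [Nat.card_congr (Subgroup.subgroupOfEquivOfLe hQN).toEquiv, h.card], hn,
    ⟨(QuotientGroup.quotientMulEquivOfEq h3.symm).trans
      (QuotientGroup.quotientKerEquivOfSurjective θ hs)⟩⟩

end CL.MP
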